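/-
Kernel checks of the certificates for the multiplier of the Held group.
-/
import Cfsg.Agent.HeMult.Model
import Cfsg.Agent.HeMult.Data

set_option autoImplicit false
set_option maxRecDepth 100000
set_option maxHeartbeats 0
set_option Elab.async false

namespace CfsgLib.HeMult

open CfsgLib.SchurCert

theorem core2 : cert2.Core (gel p2Words) :=
  core_of_two rfl (by decide +kernel) (by decide +kernel) (wit := p2Wit) (by decide +kernel) (by decide +kernel)
    (rows := p2Rows) (by decide +kernel) (by decide +kernel) (by decide +kernel) (by norm_num [cert2])

theorem ok3 : cert3.Ok (gel p3Words) :=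
  ok_of (by norm_num [cert3]) (by decide +kernel) (by decide +kernel) (by decide +kernel) (by decide +kernel)
    (by decide +kernel) (by decide +kernel) (by norm_num [cert3])

theorem ok5 : cert5.Ok (gel p5Words) :=
  ok_of (by norm_num [cert5]) (by decide +kernel) (by decide +kernel) (by decide +kernel) (by decide +kernel)
    (by decide +kernel) (by decide +kernel) (by norm_num [cert5])

theorem ok7 : cert7.Ok (gel p7Words) :=
  ok_of (by norm_num [cert7]) (by decide +kernel) (by decide +kernel) (by decide +kernel) (by decide +kernel)
    (by decide +kernel) (by decide +kernel) (by norm_num [cert7])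

theorem phi2_ok : cert2.phiZero = true := by decide +kernel
theorem phi3_ok : cert3.phiZero = true := by decide +kernel
theorem phi5_ok : cert5.phiZero = true := by decide +kernel
theorem phi7_ok : cert7.phiZero = true := by decide +kernel

end CfsgLib.HeMult
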