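/-
The multiplier of the Held group is trivial.
-/
import Cfsg.Agent.HeMult.Chk
import Cfsg.Agent.Schur.Basic

set_option autoImplicit false

namespace CfsgLib.HeMult

open Cfsg CfsgLib.Schur CfsgLib.SchurCert

universe v

/-- No cover has its kernel in the commutator subgroup. -/
theorem no_cover_He {Δ : Type v} [Group Δ] [Finite Δ] {τ : Δ →* He} {e : Δ} {q : ℕ} (hq : q.Prime)
    (hcov : PrimeCover τ e q) (hst : e ∈ commutator Δ) : False := by
  haveI := finite_He
  haveI := Fact.mk hq
  by_cases h2 : q = 2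
  · subst h2; exact core2.no_cover phi2_ok hcov hst
  by_cases h3 : q = 3
  · subst h3; exact ok3.no_cover phi3_ok hcov hst
  by_cases h5 : q = 5
  · subst h5; exact ok5.no_cover phi5_ok hcov hst
  by_cases h7 : q = 7
  · subst h7; exact ok7.no_cover phi7_ok hcov hst
  refine no_cover_of_cyclic (p := q) ?_ hcov hst
  rw [card_He]
  intro hd
  have hd1 : q ∣ 2 ^ 10 * 3 ^ 3 * 5 ^ 2 * 7 ^ 3 * 17 := by
    norm_num
    exact (dvd_pow_self q two_ne_zero).trans hd
  have hq' : q = 17 := by
    have hne : ∀ r k : ℕ, r.Prime → q ≠ r → ¬ q ∣ r ^ k := fun r k hr hne h =>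
      hne ((Nat.prime_dvd_prime_iff_eq hq hr).1 (hq.dvd_of_dvd_pow h))
    rcases (Nat.Prime.dvd_mul hq).1 hd1 with h | h
    · rcases (Nat.Prime.dvd_mul hq).1 h with h | h
      · rcases (Nat.Prime.dvd_mul hq).1 h with h | h
        · rcases (Nat.Prime.dvd_mul hq).1 h with h | h
          · exact absurd h (hne 2 10 Nat.prime_two h2)
          · exact absurd h (hne 3 3 Nat.prime_three h3)
        · exact absurd h (hne 5 2 Nat.prime_five h5)
      · exact absurd h (hne 7 3 (by norm_num) h7)
    · exact (Nat.prime_dvd_prime_iff_eq hq (by norm_num)).1 h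
  subst hq'
  norm_num at hd

/-- The multiplier of the Held group is trivial. -/
theorem multiplier_He : Cfsg.HasCyclicSchurMultiplier Cfsg.Spor.He 1 := by
  haveI := finite_He
  refine hasTrivial_of fun Γ _ _ σ hσ => ?_
  exact ker_eq_bot_of_no_cover hσ fun Δ _ _ τ e q hq hc hst => no_cover_He hq hc hst

end CfsgLib.HeMult
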